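import Mathlib
import Cfsg.Agent.Lib.Helper94.OMG.Defs
import Cfsg.Agent.Lib.Helper99.Quad3
import Cfsg.Agent.Lib.Helper44.Char2Forms
import Cfsg.Agent.Lib.Helper14.Forms
import Cfsg.Agent.Lib.Helper14.Isom
import Cfsg.Agent.Lib.Helper88.OHyp.CntWitt
import Cfsg.Agent.S0750

/-!
# Project OMG (S2415), package [MIXW] (Witt): a nondegenerate plus-type subspace of dimension
`2 k - 2` contains the image under an isometry of the standard vectors `e_i, f_i`, `i + 1 < k`.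
-/

set_option autoImplicit false
open scoped Matrix MatrixGroups

namespace Cfsg.Agent.Lib.Helper37.OMG

open Cfsg.Agent.Lib.Helper94.OMG Cfsg.Agent.Lib.Helper64.OParM Cfsg.Agent.Lib.Helper23.OHyp
open Cfsg.Agent.Lib.Helper99 Module QuadraticMap

universe u

theorem pkgMixW : PkgMixW.{u} := by
  intro F _ _ k a b hab hk C hNd hPlus hdim
  classical
  -- the quadratic form
  obtain ⟨Q', hQcoe, hQnd⟩ : ∃ Q' : QuadraticForm F (MI k → F),
      ⇑Q' = Cfsg.quadFormMinus k F a b ∧ (QuadraticMap.polarBilin Q').Nondegenerate :=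
    ⟨Cfsg.Agent.Lib.Helper14.minusQF k F a b, Cfsg.Agent.Lib.Helper14.minusQF_coe k F a b,
      Cfsg.Agent.Lib.Helper44.minusQF_nondegenerate_all k F a b hab⟩
  have hpol : ∀ x y : MI k → F,
      polar Q' x y = QuadraticMap.polar (Cfsg.quadFormMinus k F a b) x y := by
    intro x y
    rw [hQcoe]
  -- the subspace `C`
  have hCq : QNondegOn Q' C := by
    intro w hw hwv
    by_contra hne
    obtain ⟨-, ⟨y, hy, hy'⟩⟩ := hNd w hw hne
    exact hy' (by rw [← hpol]; exact hwv y hy)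
  obtain ⟨U, hUC, hUs, hUd⟩ := hPlus
  have hUdim : k - 1 ≤ finrank F U := by omega
  obtain ⟨e₂, f₂, hH₂, hm₂⟩ := hyp_of_singular Q' (k - 1) C U hCq hUC
    (fun w hw => by rw [hQcoe]; exact hUs w hw) hUdim
  -- the standard side
  obtain ⟨c, hc⟩ : ∃ c : Fin (k - 1) → Fin k, ∀ i, (c i).val = i.val :=
    ⟨fun i => ⟨i.val, by omega⟩, fun i => rfl⟩
  have hcinj : ∀ i j, c i = c j ↔ i = j := by
    intro i j
    constructor
    · intro h
      apply Fin.ext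
      rw [← hc i, ← hc j, h]
    · intro h; rw [h]
  obtain ⟨e₁, he₁⟩ : ∃ e₁ : Fin (k - 1) → (MI k → F), ∀ i, e₁ i = eM (c i) := ⟨_, fun i => rfl⟩
  obtain ⟨f₁, hf₁⟩ : ∃ f₁ : Fin (k - 1) → (MI k → F), ∀ i, f₁ i = fM (c i) := ⟨_, fun i => rfl⟩
  have hH₁ : HypFam Q' e₁ f₁ := by
    refine ⟨fun i => ⟨?_, ?_⟩, fun i j => ?_, fun i j => ⟨?_, ?_⟩⟩
    · rw [hQcoe, he₁]; simp [Cfsg.quadFormMinus]
    · rw [hQcoe, hf₁]; simp [Cfsg.quadFormMinus]
    · rw [hpol, he₁, hf₁, Cfsg.Agent.Lib.Helper14.minus_polar_inl]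
      by_cases hij : i = j
      · subst hij; simp
      · have : c j ≠ c i := fun h => hij ((hcinj j i).mp h).symm
        simp [hij, this]
    · rw [hpol, he₁, he₁, Cfsg.Agent.Lib.Helper14.minus_polar_inl]; simp
    · rw [hpol, hf₁, hf₁, Cfsg.Agent.Lib.Helper14.minus_polar_inr]; simp
  have hli1 : LinearIndependent F (Sum.elim e₁ f₁) := by
    have hli0 := hyp_li Q' e₁ f₁ hH₁ (Fin.elim0 : Fin 0 → (MI k → F))
      linearIndependent_empty_type (fun j => j.elim0)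
    have := hli0.comp Sum.inl Sum.inl_injective
    rwa [Sum.elim_comp_inl] at this
  obtain ⟨W, hW⟩ : ∃ W : Submodule F (MI k → F),
      W = Submodule.span F (Set.range (Sum.elim e₁ f₁)) := ⟨_, rfl⟩
  have hWdim : finrank F W = 2 * (k - 1) := by
    rw [hW, finrank_span_eq_card hli1]
    simp
    omega
  have hm₁ : ∀ i, e₁ i ∈ W ∧ f₁ i ∈ W := fun i => by
    rw [hW]
    exact ⟨Submodule.subset_span ⟨Sum.inl i, rfl⟩, Submodule.subset_span ⟨Sum.inr i, rfl⟩⟩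
  obtain ⟨φ, hφ⟩ := Cfsg.Agent.Lib.Helper88.OHyp.exists_isometry_of_hyp Q' W C hWdim (by omega)
    e₁ f₁ e₂ f₂ hH₁ hH₂ hm₁ hm₂
  -- Witt
  obtain ⟨g, hgq, hg⟩ := Cfsg.Agent.S0750.result Q' hQnd W C φ hφ
  obtain ⟨A, hAdef⟩ : ∃ A : Matrix (MI k) (MI k) F,
      A = LinearMap.toMatrix' (g : (MI k → F) →ₗ[F] (MI k → F)) := ⟨_, rfl⟩
  have hA : ∀ v, A *ᵥ v = g v := by
    intro v
    rw [← Matrix.toLin'_apply, hAdef, Matrix.toLin'_toMatrix']
    rfl
  have hAiso : ∀ v, Q' (A *ᵥ v) = Q' v := fun v => by rw [hA]; exact hgq v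
  have hAunit : IsUnit A := Cfsg.Agent.Lib.Helper14.isUnit_of_isometry Q' hQnd A hAiso
  have hval : (hAunit.unit : Matrix (MI k) (MI k) F) = A := IsUnit.unit_spec hAunit
  have hmem : hAunit.unit ∈ GM k F a b := by
    intro v _
    show Cfsg.quadFormMinus k F a b ((hAunit.unit : Matrix (MI k) (MI k) F) *ᵥ v) =
      Cfsg.quadFormMinus k F a b v
    rw [hval, ← hQcoe]
    exact hAiso v
  refine ⟨⟨hAunit.unit, hmem⟩, fun i hi => ?_⟩
  have hi' : i.val < k - 1 := by omega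
  have hic : i = c ⟨i.val, hi'⟩ := Fin.ext (hc ⟨i.val, hi'⟩).symm
  have h1 : (eM i : MI k → F) ∈ W := by
    rw [hic, ← he₁]; exact (hm₁ _).1
  have h2 : (fM i : MI k → F) ∈ W := by
    rw [hic, ← hf₁]; exact (hm₁ _).2
  constructor
  · show (hAunit.unit : Matrix (MI k) (MI k) F) *ᵥ (eM i : MI k → F) ∈ C
    rw [hval, hA]
    have h3 := hg ⟨eM i, h1⟩
    rw [h3]
    exact (φ ⟨eM i, h1⟩).2
  · show (hAunit.unit : Matrix (MI k) (MI k) F) *ᵥ (fM i : MI k → F) ∈ C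
    rw [hval, hA]
    have h3 := hg ⟨fM i, h2⟩
    rw [h3]
    exact (φ ⟨fM i, h2⟩).2

end Cfsg.Agent.Lib.Helper37.OMG
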